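import Cfsg.Agent.Lib.Helper45.NT.Base

set_option autoImplicit false

namespace Cfsg.Agent.Lib.Helper45.NT

variable {F : Type*} [Field F] {m : ℕ}

/-- M0 -/
theorem exists_col_ne_zero (g : Matrix.symplecticGroup (Fin m) F) (i : Fin m ⊕ Fin m) :
    ∃ j, g.1 j i ≠ 0 := by
  by_contra hcon
  push Not at hcon
  have h1 : (g⁻¹ * g).1 i i = 1 := by
    rw [inv_mul_cancel]; simp
  have h2 : (g⁻¹ * g).1 i i = 0 := by
    show (g⁻¹.1 * g.1) i i = 0
    rw [Matrix.mul_apply]
    exact Finset.sum_eq_zero (fun k _ => by rw [hcon k, mul_zero])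
  rw [h1] at h2
  exact one_ne_zero h2

end Cfsg.Agent.Lib.Helper45.NT
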