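import Cfsg.Agent.Lib.Helper45.NT.Base
import Cfsg.Agent.Lib.Helper45.NT.M0

set_option autoImplicit false

namespace Cfsg.Agent.Lib.Helper45.NT

variable {F : Type*} [Field F] {m : ℕ}

/-- M2 -/
theorem Mono.unique {g : Matrix.symplecticGroup (Fin m) F} {π ρ : Equiv.Perm (Fin m ⊕ Fin m)}
    (hg : Mono g π) (hh : Mono g ρ) : π = ρ := by
  ext i
  obtain ⟨j, hj⟩ := exists_col_ne_zero g i
  have h1 : j = π i := by
    by_contra h; exact hj (hg i j h)
  have h2 : j = ρ i := by
    by_contra h; exact hj (hh i j h)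
  rw [← h1, ← h2]

end Cfsg.Agent.Lib.Helper45.NT
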