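import Cfsg.Agent.Lib.Helper45.NT.Base

set_option autoImplicit false

namespace Cfsg.Agent.Lib.Helper45.NT

variable {F : Type*} [Field F] {m : ℕ}

theorem mem_span_single_iff (i : Fin m ⊕ Fin m) (v : Fin m ⊕ Fin m → F) :
    v ∈ Submodule.span F {(Pi.single i (1 : F) : Fin m ⊕ Fin m → F)} ↔ ∀ j, j ≠ i → v j = 0 := by
  rw [Submodule.mem_span_singleton]
  constructor
  · rintro ⟨c, rfl⟩ j hj
    simp [Pi.single_apply, hj]
  · intro h
    refine ⟨v i, ?_⟩
    ext j
    by_cases hj : j = i
    · subst hj; simp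
    · simp [Pi.single_apply, hj, h j hj]

theorem diag_ne_zero {g : Matrix.symplecticGroup (Fin m) F} (hg : Mono g 1) (i : Fin m ⊕ Fin m) :
    g.1 i i ≠ 0 := by
  intro h0
  have h1 : (g⁻¹ * g).1 i i = 1 := by
    rw [inv_mul_cancel]; simp
  have h2 : (g⁻¹ * g).1 i i = 0 := by
    show (g⁻¹.1 * g.1) i i = 0
    rw [Matrix.mul_apply]
    refine Finset.sum_eq_zero (fun k _ => ?_)
    by_cases hk : k = i
    · subst hk; rw [h0, mul_zero]
    · rw [hg i k (by simpa using hk), mul_zero]
  rw [h1] at h2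
  exact one_ne_zero h2

theorem mulVec_of_mono_one {g : Matrix.symplecticGroup (Fin m) F} (hg : Mono g 1)
    (v : Fin m ⊕ Fin m → F) (j : Fin m ⊕ Fin m) : (g.1.mulVec v) j = g.1 j j * v j := by
  rw [Matrix.mulVec, dotProduct]
  refine Finset.sum_eq_single j (fun k _ hk => ?_) (fun h => absurd (Finset.mem_univ _) h)
  rw [hg k j (by simpa using hk.symm), zero_mul]

/-- P1 -/
theorem mem_tor_iff (g : Matrix.symplecticGroup (Fin m) F) : g ∈ tor m F ↔ Mono g 1 := by
  unfold tor
  rw [Subgroup.mem_iInf]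
  constructor
  · intro h i j hj
    have h1 := (h i (Pi.single i 1)).mp (Submodule.mem_span_singleton_self _)
    have h2 := (mem_span_single_iff i _).mp h1 j (by simpa using hj)
    simpa [Matrix.mulVec_single] using h2
  · intro hg i v
    show v ∈ Submodule.span F _ ↔ g.1.mulVec v ∈ Submodule.span F _
    rw [mem_span_single_iff, mem_span_single_iff]
    refine forall₂_congr (fun j _ => ?_)
    rw [mulVec_of_mono_one hg, mul_eq_zero]
    constructor
    · intro h; exact Or.inr h
    · intro h; exact h.resolve_left (diag_ne_zero hg j)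

end Cfsg.Agent.Lib.Helper45.NT
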