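import Cfsg.Agent.Lib.Helper45.NT.Base

set_option autoImplicit false

namespace Cfsg.Agent.Lib.Helper45.NT

variable {F : Type*} [Field F] {m : ℕ}

/-- the sign `J i (sw i)` -/
def M6_s (m : ℕ) (F : Type*) [Field F] : Fin m ⊕ Fin m → F := Sum.elim (fun _ => -1) (fun _ => 1)

theorem M6_J_eq (a b : Fin m ⊕ Fin m) :
    Matrix.J (Fin m) F a b = if b = sw m a then M6_s m F a else 0 := by
  rcases a with a | a <;> rcases b with b | b <;>
    simp [Matrix.J, sw, M6_s, Matrix.one_apply, eq_comm]
  split_ifs <;> simp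

theorem M6_s_sw (a : Fin m ⊕ Fin m) : M6_s m F (sw m a) = - M6_s m F a := by
  rcases a with a | a <;> simp [M6_s, sw]

theorem M6_s_sq (a : Fin m ⊕ Fin m) : M6_s m F a * M6_s m F a = 1 := by
  rcases a with a | a <;> simp [M6_s]

/-- M6 -/
theorem exists_mono_of_commute (F : Type*) [Field F] {π : Equiv.Perm (Fin m ⊕ Fin m)}
    (hπ : π ∈ Subgroup.centralizer {sw m}) :
    ∃ g : Matrix.symplecticGroup (Fin m) F, Mono g π := by
  rw [Subgroup.mem_centralizer_singleton_iff] at hπ
  have key : ∀ i, π (sw m i) = sw m (π i) := by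
    intro i
    have := congrArg (fun f : Equiv.Perm (Fin m ⊕ Fin m) => f i) hπ
    simpa using this
  let d : Fin m ⊕ Fin m → F := Sum.elim (fun _ => 1) (fun a => M6_s m F (π (Sum.inr a)))
  let g : Matrix (Fin m ⊕ Fin m) (Fin m ⊕ Fin m) F := fun j i => if j = π i then d i else 0
  have hg0 : ∀ i j, j ≠ π i → g j i = 0 := fun i j h => if_neg h
  have hg1 : ∀ i, g (π i) i = d i := fun i => if_pos rfl
  have hg : g ∈ Matrix.symplecticGroup (Fin m) F := by
    rw [SymplecticGroup.mem_iff']
    ext i i'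
    rw [Matrix.mul_apply, Finset.sum_eq_single (π i'), Matrix.mul_apply,
      Finset.sum_eq_single (π i), Matrix.transpose_apply, hg1, hg1, M6_J_eq, M6_J_eq, ← key]
    · by_cases h : i' = sw m i
      · subst h
        rw [if_pos rfl, if_pos rfl]
        rcases i with a | a
        · have e1 : d (sw m (Sum.inl a)) = M6_s m F (π (sw m (Sum.inl a))) := rfl
          have e2 : d (Sum.inl a) = 1 := rfl
          rw [e1, e2, key, M6_s_sw, one_mul, mul_neg, M6_s_sq]
          rfl
        · have e1 : d (sw m (Sum.inr a)) = 1 := rfl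
          have e2 : d (Sum.inr a) = M6_s m F (π (Sum.inr a)) := rfl
          rw [e1, e2, mul_one, M6_s_sq]
          rfl
      · rw [if_neg h, if_neg (fun e => h (π.injective e)), mul_zero, zero_mul]
    · intro a _ ha
      rw [Matrix.transpose_apply, hg0 i a ha, zero_mul]
    · intro h; exact absurd (Finset.mem_univ _) h
    · intro b _ hb
      rw [hg0 i' b hb, mul_zero]
    · intro h; exact absurd (Finset.mem_univ _) h
  exact ⟨⟨g, hg⟩, hg0⟩

end Cfsg.Agent.Lib.Helper45.NT
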