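import Cfsg.Agent.Lib.Helper45.NT.Base
import Cfsg.Agent.Lib.Helper45.NT.P1
import Cfsg.Agent.Lib.Helper45.NT.M6

set_option autoImplicit false

namespace Cfsg.Agent.Lib.Helper45.NT

variable {F : Type*} [Field F] {m : ℕ}

/-- the diagonal entries -/
def PT_e (d : Fin m → Fˣ) : Fin m ⊕ Fin m → F :=
  Sum.elim (fun i => (d i : F)) (fun i => (((d i)⁻¹ : Fˣ) : F))

theorem PT_e_sw (d : Fin m → Fˣ) (a : Fin m ⊕ Fin m) : PT_e d a * PT_e d (sw m a) = 1 := by
  rcases a with a | a <;> simp [PT_e, sw]

theorem PT_diag_mem {e : Fin m ⊕ Fin m → F} (he : ∀ a, e a * e (sw m a) = 1) :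
    Matrix.diagonal e ∈ Matrix.symplecticGroup (Fin m) F := by
  rw [SymplecticGroup.mem_iff]
  ext a b
  rw [Matrix.diagonal_transpose, Matrix.mul_diagonal, Matrix.diagonal_mul, M6_J_eq]
  split_ifs with h
  · subst h
    rw [mul_right_comm, he, one_mul]
  · rw [mul_zero, zero_mul]

/-- the torus element with entries `d`, `d⁻¹` -/
def PT_T (d : Fin m → Fˣ) : tor m F :=
  ⟨⟨Matrix.diagonal (PT_e d), PT_diag_mem (PT_e_sw d)⟩, by
    rw [mem_tor_iff]
    intro i j hj
    exact Matrix.diagonal_apply_ne' _ (by simpa using hj.symm)⟩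

theorem PT_T_apply (d : Fin m → Fˣ) (a : Fin m ⊕ Fin m) : (PT_T d).1.1 a a = PT_e d a :=
  Matrix.diagonal_apply_eq _ _

theorem PT_T_bijective : Function.Bijective (PT_T : (Fin m → Fˣ) → tor m F) := by
  constructor
  · intro d d' h
    funext i
    have := PT_T_apply d (Sum.inl i)
    rw [h, PT_T_apply] at this
    exact Units.ext this.symm
  · rintro ⟨t, ht⟩
    rw [mem_tor_iff] at ht
    have hd : t.1 = Matrix.diagonal (fun a => t.1 a a) := by
      ext a b
      by_cases hab : a = b
      · subst hab; rw [Matrix.diagonal_apply_eq]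
      · rw [Matrix.diagonal_apply_ne _ hab]
        exact ht b a (by simpa using hab)
    have h1 : ∀ a, t.1 a a * t.1 (sw m a) (sw m a) = 1 := by
      intro a
      have h := SymplecticGroup.mem_iff.mp t.2
      have e := congrFun (congrFun h a) (sw m a)
      rw [hd, Matrix.diagonal_transpose, Matrix.mul_diagonal, Matrix.diagonal_mul, M6_J_eq,
        if_pos rfl] at e
      have hs := M6_s_sq (F := F) a
      have : (t.1 a a * t.1 (sw m a) (sw m a)) * (M6_s m F a * M6_s m F a) =
          M6_s m F a * M6_s m F a := by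
        calc _ = (t.1 a a * M6_s m F a * t.1 (sw m a) (sw m a)) * M6_s m F a := by ring
          _ = _ := by rw [e]
      rwa [hs, mul_one] at this
    refine ⟨fun i => Units.mkOfMulEqOne _ _ (h1 (Sum.inl i)), ?_⟩
    apply Subtype.ext
    apply Subtype.ext
    show Matrix.diagonal _ = t.1
    refine Eq.trans ?_ hd.symm
    congr 1
    funext a
    rcases a with a | a
    · rfl
    · rfl

/-- PT -/
theorem card_tor [Fintype F] : Nat.card (tor m F) = (Fintype.card F - 1) ^ m := by
  classical
  rw [← Nat.card_congr (Equiv.ofBijective _ (PT_T_bijective (F := F) (m := m))),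
    Nat.card_eq_fintype_card, Fintype.card_pi, Finset.prod_const, Fintype.card_units,
    Finset.card_univ, Fintype.card_fin]

end Cfsg.Agent.Lib.Helper45.NT
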