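import Cfsg.Agent.Lib.Helper45.NT.Base
import Cfsg.Agent.Lib.Helper45.NT.P1
import Cfsg.Agent.Lib.Helper45.NT.PT

set_option autoImplicit false

namespace Cfsg.Agent.Lib.Helper45.NT

variable {F : Type*} [Field F] {m : ℕ}

theorem M3a_exists_sq_ne [Fintype F] (hq : 4 ≤ Fintype.card F) : ∃ a : Fˣ, a ^ 2 ≠ 1 := by
  classical
  by_contra hcon
  push Not at hcon
  have hsub : (Finset.univ : Finset Fˣ) ⊆ {1, -1} := by
    intro a _
    have h := hcon a
    have h2 : ((a : F) - 1) * ((a : F) + 1) = 0 := by
      have : (a : F) ^ 2 = 1 := by rw [← Units.val_pow_eq_pow_val, h, Units.val_one]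
      linear_combination this
    rcases mul_eq_zero.mp h2 with h3 | h3
    · simp only [Finset.mem_insert, Finset.mem_singleton]
      left; exact Units.ext (by rw [Units.val_one]; linear_combination h3)
    · simp only [Finset.mem_insert, Finset.mem_singleton]
      right; exact Units.ext (by rw [Units.val_neg, Units.val_one]; linear_combination h3)
  have hc := Finset.card_le_card hsub
  have h2 : ({1, -1} : Finset Fˣ).card ≤ 2 := Finset.card_le_two
  rw [Finset.card_univ, Fintype.card_units] at hc
  omega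

/-- M3a -/
theorem exists_tor_sep [Fintype F] (hq : 4 ≤ Fintype.card F) {i i' : Fin m ⊕ Fin m}
    (h : i ≠ i') : ∃ t ∈ tor m F, t.1 i i ≠ t.1 i' i' := by
  obtain ⟨a, ha⟩ := M3a_exists_sq_ne hq
  have ha1 : (a : F) ≠ 1 := by
    intro h1
    apply ha
    have : a = 1 := Units.ext h1
    rw [this, one_pow]
  have ha1' : ((a⁻¹ : Fˣ) : F) ≠ 1 := by
    intro h1
    apply ha
    have : a⁻¹ = 1 := Units.ext h1
    rw [inv_eq_one.mp this, one_pow]
  have ha2 : (a : F) ≠ ((a⁻¹ : Fˣ) : F) := by
    intro h1
    apply ha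
    have : a = a⁻¹ := Units.ext h1
    rw [pow_two]
    nth_rewrite 1 [this]
    exact inv_mul_cancel a
  refine ⟨(PT_T (Function.update 1 (Sum.elim id id i) a)).1, (PT_T _).2, ?_⟩
  rw [PT_T_apply, PT_T_apply]
  rcases i with k | k <;> rcases i' with j | j
  · have hjk : j ≠ k := fun e => h (by rw [e])
    simp [PT_e, Function.update_of_ne hjk, ha1]
  · by_cases hjk : j = k
    · subst hjk
      simpa [PT_e] using ha2
    · simp [PT_e, Function.update_of_ne hjk, ha1]
  · by_cases hjk : j = k
    · subst hjk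
      simpa [PT_e] using ha2.symm
    · simpa [PT_e, Function.update_of_ne hjk] using ha1'
  · have hjk : j ≠ k := fun e => h (by rw [e])
    simpa [PT_e, Function.update_of_ne hjk] using ha1'

end Cfsg.Agent.Lib.Helper45.NT
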