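import Cfsg.Agent.Lib.Helper45.NT.Base
import Cfsg.Agent.Lib.Helper45.NT.M3a

set_option autoImplicit false

namespace Cfsg.Agent.Lib.Helper45.NT

variable {F : Type*} [Field F] {m : ℕ}

theorem mul_diag_apply' {t : Matrix.symplecticGroup (Fin m) F} (ht : Mono t 1)
    (A : Matrix (Fin m ⊕ Fin m) (Fin m ⊕ Fin m) F) (j i : Fin m ⊕ Fin m) :
    (A * t.1) j i = A j i * t.1 i i := by
  rw [Matrix.mul_apply, Finset.sum_eq_single i]
  · intro k _ hk
    rw [ht i k (by simpa using hk), mul_zero]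
  · intro h
    exact absurd (Finset.mem_univ i) h

theorem diag_mul_apply' {t : Matrix.symplecticGroup (Fin m) F} (ht : Mono t 1)
    (A : Matrix (Fin m ⊕ Fin m) (Fin m ⊕ Fin m) F) (j i : Fin m ⊕ Fin m) :
    (t.1 * A) j i = t.1 j j * A j i := by
  rw [Matrix.mul_apply, Finset.sum_eq_single j]
  · intro k _ hk
    rw [ht k j (by simpa using Ne.symm hk), zero_mul]
  · intro h
    exact absurd (Finset.mem_univ j) h

/-- M3c -/
theorem col_unique [Fintype F] (hq : 4 ≤ Fintype.card F)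
    {g : Matrix.symplecticGroup (Fin m) F}
    (hg : g ∈ Subgroup.normalizer (tor m F : Set (Matrix.symplecticGroup (Fin m) F)))
    {i j j' : Fin m ⊕ Fin m} (h1 : g.1 j i ≠ 0) (h2 : g.1 j' i ≠ 0) : j = j' := by
  by_contra hne
  obtain ⟨t, ht, hsep⟩ := exists_tor_sep hq hne
  have hg' := Subgroup.inv_mem _ hg
  have ht' : g⁻¹ * t * g⁻¹⁻¹ ∈ tor m F := (Subgroup.mem_normalizer_iff.1 hg' t).1 ht
  rw [inv_inv] at ht'
  have hd := (mem_tor_iff t).1 ht
  have hd' := (mem_tor_iff _).1 ht'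
  have hmul : t * g = g * (g⁻¹ * t * g) := by group
  have hmat : t.1 * g.1 = g.1 * (g⁻¹ * t * g).1 := congrArg Subtype.val hmul
  have e1 := congrFun (congrFun hmat j) i
  have e2 := congrFun (congrFun hmat j') i
  rw [mul_diag_apply' hd', diag_mul_apply' hd] at e1 e2
  apply hsep
  have f1 : t.1 j j = (g⁻¹ * t * g).1 i i := by
    apply mul_right_cancel₀ h1
    rw [e1, mul_comm]
  have f2 : t.1 j' j' = (g⁻¹ * t * g).1 i i := by
    apply mul_right_cancel₀ h2
    rw [e2, mul_comm]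
  rw [f1, f2]

end Cfsg.Agent.Lib.Helper45.NT
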