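import Cfsg.Agent.Lib.Helper45.NT.Base
import Cfsg.Agent.Lib.Helper45.NT.M0
import Cfsg.Agent.Lib.Helper45.NT.M3b
import Cfsg.Agent.Lib.Helper45.NT.M3c

set_option autoImplicit false

namespace Cfsg.Agent.Lib.Helper45.NT

variable {F : Type*} [Field F] {m : ℕ}

/-- M3 -/
theorem exists_mono [Fintype F] (hq : 4 ≤ Fintype.card F)
    {g : Matrix.symplecticGroup (Fin m) F}
    (hg : g ∈ Subgroup.normalizer (tor m F : Set (Matrix.symplecticGroup (Fin m) F))) :
    ∃ π, Mono g π := by
  choose p hp using exists_col_ne_zero g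
  have hinj : Function.Injective p := by
    intro i i' h
    exact row_unique hq hg (hp i) (h ▸ hp i')
  refine ⟨Equiv.ofBijective p (Finite.injective_iff_bijective.1 hinj), ?_⟩
  intro i j hj
  by_contra hne
  apply hj
  exact col_unique hq hg hne (hp i)

end Cfsg.Agent.Lib.Helper45.NT
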