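import Cfsg.Agent.Lib.Helper45.NT.Base

set_option autoImplicit false

namespace Cfsg.Agent.Lib.Helper45.NT

variable {F : Type*} [Field F] {m : ℕ}

theorem M5_J_ne (a b : Fin m ⊕ Fin m) (h : Matrix.J (Fin m) F a b ≠ 0) : b = sw m a := by
  rcases a with a | a <;> rcases b with b | b <;>
    simp [Matrix.J, sw, Matrix.one_apply] at h ⊢ <;> exact h.symm

theorem M5_J_sw (a : Fin m ⊕ Fin m) : Matrix.J (Fin m) F a (sw m a) ≠ 0 := by
  rcases a with a | a <;> simp [Matrix.J, sw]

/-- M5 -/
theorem Mono.commute_sw {g : Matrix.symplecticGroup (Fin m) F}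
    {π : Equiv.Perm (Fin m ⊕ Fin m)} (hg : Mono g π) :
    π ∈ Subgroup.centralizer {sw m} := by
  have key : ∀ i, π (sw m i) = sw m (π i) := by
    intro i
    apply M5_J_ne (F := F)
    intro h0
    have h := SymplecticGroup.mem_iff'.mp g.2
    have e := congrFun (congrFun h i) (sw m i)
    rw [Matrix.mul_apply, Finset.sum_eq_single (π (sw m i)), Matrix.mul_apply,
      Finset.sum_eq_single (π i), h0, mul_zero, zero_mul] at e
    · exact M5_J_sw i e.symm
    · intro a _ ha
      rw [Matrix.transpose_apply, hg i a ha, zero_mul]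
    · intro h; exact absurd (Finset.mem_univ _) h
    · intro b _ hb
      rw [hg (sw m i) b hb, mul_zero]
    · intro h; exact absurd (Finset.mem_univ _) h
  rw [Subgroup.mem_centralizer_singleton_iff]
  ext i
  simp only [Equiv.Perm.coe_mul, Function.comp_apply, key]

end Cfsg.Agent.Lib.Helper45.NT
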