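import Cfsg.Agent.Lib.Helper45.NT.Base

set_option autoImplicit false

namespace Cfsg.Agent.Lib.Helper45.NT

variable {F : Type*} [Field F] {m : ℕ}

/-- M1 -/
theorem Mono.mul {g h : Matrix.symplecticGroup (Fin m) F} {π ρ : Equiv.Perm (Fin m ⊕ Fin m)}
    (hg : Mono g π) (hh : Mono h ρ) : Mono (g * h) (π * ρ) := by
  intro i j hj
  show (g.1 * h.1) j i = 0
  rw [Matrix.mul_apply]
  refine Finset.sum_eq_zero (fun k _ => ?_)
  by_cases hk : k = ρ i
  · subst hk
    rw [hg (ρ i) j hj, zero_mul]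
  · rw [hh i k hk, mul_zero]

end Cfsg.Agent.Lib.Helper45.NT
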