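import Cfsg.Agent.Lib.Helper45.NT.Base

set_option autoImplicit false

namespace Cfsg.Agent.Lib.Helper45.NT

variable {F : Type*} [Field F] {m : ℕ}

/-- MI -/
theorem Mono.inv {g : Matrix.symplecticGroup (Fin m) F} {π : Equiv.Perm (Fin m ⊕ Fin m)}
    (hg : Mono g π) : Mono g⁻¹ π⁻¹ := by
  have key : ∀ i j, (g⁻¹).1 j (π i) * g.1 (π i) i = if j = i then 1 else 0 := by
    intro i j
    have h1 : (g⁻¹ * g).1 j i = if j = i then 1 else 0 := by
      rw [inv_mul_cancel]; simp [Matrix.one_apply]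
    have h2 : (g⁻¹ * g).1 j i = (g⁻¹).1 j (π i) * g.1 (π i) i := by
      show ((g⁻¹).1 * g.1) j i = _
      rw [Matrix.mul_apply]
      refine Finset.sum_eq_single (π i) (fun k _ hk => ?_) (fun h => absurd (Finset.mem_univ _) h)
      rw [hg i k hk, mul_zero]
    rw [← h2, h1]
  intro k j hj
  have hne : g.1 (π (π⁻¹ k)) (π⁻¹ k) ≠ 0 := by
    intro h0
    have := key (π⁻¹ k) (π⁻¹ k)
    rw [h0, mul_zero, if_pos rfl] at this
    exact zero_ne_one this
  have h3 := key (π⁻¹ k) j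
  rw [if_neg hj] at h3
  have h4 := (mul_eq_zero.mp h3).resolve_right hne
  simpa using h4

end Cfsg.Agent.Lib.Helper45.NT
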