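import Cfsg.Agent.Lib.Helper45.NT.Base
import Cfsg.Agent.Lib.Helper45.NT.P1
import Cfsg.Agent.Lib.Helper45.NT.M1
import Cfsg.Agent.Lib.Helper45.NT.MI

set_option autoImplicit false

namespace Cfsg.Agent.Lib.Helper45.NT

variable {F : Type*} [Field F] {m : ℕ}

/-- M7 -/
theorem Mono.mem_normalizer {g : Matrix.symplecticGroup (Fin m) F}
    {π : Equiv.Perm (Fin m ⊕ Fin m)} (hg : Mono g π) :
    g ∈ Subgroup.normalizer (tor m F : Set (Matrix.symplecticGroup (Fin m) F)) := by
  rw [Subgroup.mem_normalizer_iff]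
  intro t
  constructor
  · intro ht
    have ht' : t ∈ tor m F := ht
    rw [mem_tor_iff] at ht'
    have h := (hg.mul ht').mul hg.inv
    show g * t * g⁻¹ ∈ tor m F
    rw [mem_tor_iff]
    simpa using h
  · intro ht
    have ht' : g * t * g⁻¹ ∈ tor m F := ht
    rw [mem_tor_iff] at ht'
    have h := (hg.inv.mul ht').mul hg
    show t ∈ tor m F
    rw [mem_tor_iff]
    have e : g⁻¹ * (g * t * g⁻¹) * g = t := by group
    rw [e] at h
    simpa using h

end Cfsg.Agent.Lib.Helper45.NT
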