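import Cfsg.Agent.Lib.Helper45.NT.Base

set_option autoImplicit false

namespace Cfsg.Agent.Lib.Helper45.NT

variable {F : Type*} [Field F] {m : ℕ}

theorem PC_cycleType_sw (m : ℕ) : (sw m).cycleType = Multiset.replicate m 2 := by
  rcases Nat.eq_zero_or_pos m with rfl | hm
  · have : sw 0 = 1 := Subsingleton.elim _ _
    rw [this, Equiv.Perm.cycleType_one]; rfl
  · have h2 : (sw m) ^ 2 = 1 := by
      ext x
      rcases x with x | x <;> rfl
    have h1 : sw m ≠ 1 := by
      intro h
      have := congrArg (fun f : Equiv.Perm (Fin m ⊕ Fin m) => f (Sum.inl ⟨0, hm⟩)) h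
      simp [sw] at this
    have ho : orderOf (sw m) = 2 := orderOf_eq_prime h2 h1
    obtain ⟨n, hn⟩ := Equiv.Perm.cycleType_prime_order (σ := sw m) (by rw [ho]; exact Nat.prime_two)
    have hs : (sw m).support = Finset.univ := by
      ext x
      simp only [Equiv.Perm.mem_support, Finset.mem_univ, iff_true]
      rcases x with x | x <;> simp [sw]
    have hsum := Equiv.Perm.sum_cycleType (sw m)
    rw [hn, hs, ho, Multiset.sum_replicate, Finset.card_univ, Fintype.card_sum, Fintype.card_fin,
      smul_eq_mul] at hsum
    have : n + 1 = m := by omega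
    rw [hn, ho, this]

/-- PC -/
theorem card_centralizer_sw (m : ℕ) :
    Nat.card (Subgroup.centralizer {sw m}) = 2 ^ m * Nat.factorial m := by
  rw [Equiv.Perm.nat_card_centralizer, PC_cycleType_sw, Multiset.sum_replicate,
    Multiset.prod_replicate, Fintype.card_sum, Fintype.card_fin, smul_eq_mul]
  have h0 : m + m - m * 2 = 0 := by omega
  rw [h0, Nat.factorial_zero, one_mul]
  congr 1
  rcases Nat.eq_zero_or_pos m with rfl | hm
  · simp
  · have : (Multiset.replicate m 2).toFinset = {2} := by
      ext x
      simp [Multiset.mem_replicate, hm.ne']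
    rw [this, Finset.prod_singleton, Multiset.count_replicate_self]

end Cfsg.Agent.Lib.Helper45.NT
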