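import Cfsg.Agent.Lib.Helper45.NT.Base
import Cfsg.Agent.Lib.Helper45.NT.PT
import Cfsg.Agent.Lib.Helper45.NT.M2
import Cfsg.Agent.Lib.Helper45.NT.M7
import Cfsg.Agent.Lib.Helper45.NT.M3
import Cfsg.Agent.Lib.Helper45.NT.M5
import Cfsg.Agent.Lib.Helper45.NT.M6
import Cfsg.Agent.Lib.Helper45.NT.PC

set_option autoImplicit false

namespace Cfsg.Agent.Lib.Helper45.NT

variable {F : Type*} [Field F] {m : ℕ}

/-- the hom -/
noncomputable def permHom [Fintype F] (hq : 4 ≤ Fintype.card F) :
    Subgroup.normalizer (tor m F : Set (Matrix.symplecticGroup (Fin m) F)) →*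
      Equiv.Perm (Fin m ⊕ Fin m) :=
  MonoidHom.mk' (fun g => (exists_mono hq g.2).choose) (by
    intro a b
    exact Mono.unique (exists_mono hq (a * b).2).choose_spec
      ((exists_mono hq a.2).choose_spec.mul (exists_mono hq b.2).choose_spec))

theorem permHom_spec [Fintype F] (hq : 4 ≤ Fintype.card F)
    (g : Subgroup.normalizer (tor m F : Set (Matrix.symplecticGroup (Fin m) F))) :
    Mono g.1 (permHom hq g) := (exists_mono hq g.2).choose_spec

theorem permHom_range [Fintype F] (hq : 4 ≤ Fintype.card F) :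
    (permHom (m := m) (F := F) hq).range = Subgroup.centralizer {sw m} := by
  ext π
  constructor
  · rintro ⟨g, rfl⟩
    exact (permHom_spec hq g).commute_sw
  · intro hπ
    obtain ⟨g, hg⟩ := exists_mono_of_commute F hπ
    exact ⟨⟨g, hg.mem_normalizer⟩, Mono.unique (permHom_spec hq _) hg⟩

theorem permHom_ker [Fintype F] (hq : 4 ≤ Fintype.card F) :
    (permHom (m := m) (F := F) hq).ker = (tor m F).subgroupOf _ := by
  ext g
  rw [MonoidHom.mem_ker, Subgroup.mem_subgroupOf, mem_tor_iff]
  constructor
  · intro h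
    have := permHom_spec hq g
    rwa [h] at this
  · intro h
    exact Mono.unique (permHom_spec hq g) h

theorem card_normalizer [Fintype F] (hq : 4 ≤ Fintype.card F) :
    Nat.card (Subgroup.normalizer (tor m F : Set (Matrix.symplecticGroup (Fin m) F))) =
      2 ^ m * Nat.factorial m * (Fintype.card F - 1) ^ m := by
  rw [← (permHom (m := m) (F := F) hq).ker.card_mul_index, Subgroup.index_ker, permHom_range,
    card_centralizer_sw, permHom_ker,
    Nat.card_congr (Subgroup.subgroupOfEquivOfLe Subgroup.le_normalizer).toEquiv, card_tor,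
    mul_comm]

end Cfsg.Agent.Lib.Helper45.NT
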