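import Cfsg.Statements.S0777

/-! S0777: the normaliser of the diagonal torus of `Sp_2m(q)`; definitions. -/

set_option autoImplicit false

namespace Cfsg.Agent.Lib.Helper45.NT

/-- the diagonal torus, exactly as in the statement of S0777 -/
def tor (m : ℕ) (F : Type*) [Field F] : Subgroup (Matrix.symplecticGroup (Fin m) F) :=
  ⨅ i : Fin m ⊕ Fin m, Cfsg.stabilizing (Cfsg.spToMat m F)
    ((Submodule.span F {(Pi.single i (1 : F) : Fin m ⊕ Fin m → F)} :
      Submodule F (Fin m ⊕ Fin m → F)) : Set (Fin m ⊕ Fin m → F))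

/-- `g` is monomial with permutation `π`: column `i` is supported in row `π i`. -/
def Mono {m : ℕ} {F : Type*} [Field F] (g : Matrix.symplecticGroup (Fin m) F)
    (π : Equiv.Perm (Fin m ⊕ Fin m)) : Prop :=
  ∀ i j, j ≠ π i → g.1 j i = 0

/-- the swap `inl i ↔ inr i` -/
def sw (m : ℕ) : Equiv.Perm (Fin m ⊕ Fin m) := Equiv.sumComm (Fin m) (Fin m)

end Cfsg.Agent.Lib.Helper45.NT
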